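import Cfsg.Agent.KFacts.RgdChevCoord
import Cfsg.Agent.H70.OutCount
import Cfsg.Agent.H804.Ext.Mackey

/-!
# The field automorphisms of the Chevalley groups in the root group datum (helper728, S4832, EXT-E7)

`exists_field_tau` : every automorphism `τ` of the field is the field automorphism of a frame automorphism with trivial
diagram symmetry.
-/

set_option autoImplicit false
set_option linter.unusedSectionVars false

namespace Cfsg.Agent.H728.Ext

open CoxeterSystem Cfsg.Agent.ChevalleyStructure.CoxeterGeom Cfsg.Agent.Tits.Roots Cfsg.Agent.Tits.Core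
  Cfsg.Agent.Nodes.Reps Cfsg.Agent.Nodes.BNOf Cfsg.Agent.Nodes.StabComb
  Cfsg.Agent.Nodes.OppDec Cfsg.Agent.Nodes.RGDChev
  Cfsg.Agent.KFacts.RgdAut Cfsg.Agent.KFacts.RgdDiag Cfsg.Agent.KFacts.RgdRigid
  Cfsg.Agent.KFacts.RgdField Cfsg.Agent.KFacts.RgdTau Cfsg.Agent.KFacts.RgdChevCoord
open Cfsg.Lie Cfsg.Agent.ChevalleyStructure Cfsg.Agent.ChevalleyStructure.Elts
  Cfsg.Agent.ChevalleyStructure.NPerm Cfsg.Agent.ChevalleyStructure.CoxeterGeomTypes

universe u

variable {D : ChevalleyDatum} {l : ℕ} {M : CoxeterMatrix (Fin l)} (hp : IsType D l M) {K : Type u} [Field K] [Finite K]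

/-- a family of root groups fixed by an automorphism -/
theorem fix_Sup {I W Y : Type*} [Fintype I] [DecidableEq I] [Group W] [Group Y] {M : CoxeterMatrix I}
    {cs : CoxeterSystem M W} {A : I → I → ℤ} {h : IsCartan M A} {X : (I → ℤ) → Subgroup Y} {β : MulAut Y}
    (hX : ∀ x, IsRoot cs h x → Fix β (X x)) (S : Set (I → ℤ)) (hS : ∀ x ∈ S, IsRoot cs h x) :
    Fix β (RGD.Sup X S) := by
  refine H804.Ext.map_iff.2 ?_
  unfold RGD.Sup
  rw [Subgroup.map_iSup]
  congr 1
  funext z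
  exact H804.Ext.map_iff.1 (hX z.1 (hS _ z.2))

theorem exists_field_tau {W : Type*} [Group W] (cs : CoxeterSystem M W) (r : ℕ) [Fact r.Prime] [CharP K r]
    (τ : K ≃+* K) :
    ∃ α : MulAut ↥(D.group K), Tau (TT D K) (XX D l K) (ch (K := K) hp) (cartanOf D l) α 1 τ := by
  have hW : Finite W := finite_W hp cs
  have R := rgd (K := K) hp cs r
  have hG1 : RGD.Sup (XX D l K) {x | IsRoot cs hp.isCartan x} = ⊤ := G1_eq_top (K := K) hp cs
  have C := coords (K := K) hp cs r
  obtain ⟨α, hα⟩ := H70.OutCount.exists_fieldAut (F := K) hp.inList τ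
  have hx : ∀ x, IsRoot cs hp.isCartan x → ∀ a, α (xc hp x a) = xc hp x (τ a) := by
    intro x hx a
    obtain ⟨s, hs, rfl⟩ := (isRoot_iff hp cs x).1 hx
    have e1 : ∀ a : K, xc hp (vec D l s) a = H70.ChevFix.xe hp.inList s a := fun a => Subtype.ext (coe_xc hp hs a)
    rw [e1, e1]
    exact hα s hs a
  have hfix : ∀ x, IsRoot cs hp.isCartan x → Fix α (XX D l K x) := by
    intro x hx' u
    constructor
    · intro hu
      obtain ⟨a, ha⟩ := ((C.coord x hx').mem _).1 hu
      refine ((C.coord x hx').mem _).2 ⟨τ.symm a, α.injective ?_⟩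
      rw [hx x hx', RingEquiv.apply_symm_apply, ha]
    · intro hu
      obtain ⟨a, rfl⟩ := ((C.coord x hx').mem _).1 hu
      exact ((C.coord x hx').mem _).2 ⟨τ a, (hx x hx' a).symm⟩
  obtain ⟨σ, Dg⟩ := exists_diag R (GG_eq_top hG1) (fix_Sup hfix (RGD.Pos cs hp.isCartan) fun x hx => hx.1)
    (fix_Sup hfix (Neg cs hp.isCartan) fun x hx => hx.1)
  refine ⟨α, ⟨Dg.tor, fun i => hfix _ (isRoot_sr cs _ i), fun i => hfix _ (isRoot_sr cs _ i).neg⟩, fun _ _ => rfl,
    fun i t ht => ?_⟩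
  have hC := C.coord _ (isRoot_sr cs hp.isCartan i)
  have h1 := congrArg α (hC.act t ht 1)
  rw [map_mul, map_mul, map_inv, hx _ (isRoot_sr cs _ i), hx _ (isRoot_sr cs _ i), map_one, mul_one,
    hC.act _ ((Dg.tor t).2 ht), mul_one] at h1
  exact hC.inj h1

end Cfsg.Agent.H728.Ext
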