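import Cfsg.Agent.H728.Ext.Stab
import Cfsg.Agent.H804.Ext.Mackey
import Cfsg.Agent.H53.HC.ExcIM

/-!
# Big characters which are not invariant under field automorphisms (helper728, S4832, EXT-E7)

`exists_generic` : `F₄(q)`, `²E₆(q)`, `E₇(q)`, `E₈(q)`, `q ≠ 4`: some irreducible character of degree divisible by all
primes `ℓ ≠ r` dividing the order of the group is not invariant under the frame automorphisms with a nontrivial field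
automorphism (and trivial diagram symmetry).
-/

set_option autoImplicit false
set_option linter.unusedSectionVars false

open scoped ComplexConjugate
open Cfsg

namespace Cfsg.Agent.H728.Ext

open Cfsg.Agent.H53.HC Cfsg.Agent.Characters
open CoxeterSystem Cfsg.Agent.ChevalleyStructure.CoxeterGeom Cfsg.Agent.Tits.Roots Cfsg.Agent.Tits.Core
  Cfsg.Agent.Tits.Exchange Cfsg.Agent.Nodes.Reps Cfsg.Agent.Nodes.BNOf Cfsg.Agent.Nodes.StabComb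
  Cfsg.Agent.Nodes.Bruhat Cfsg.Agent.Nodes.OppDec Cfsg.Agent.Nodes.LeviDec Cfsg.Agent.H35.ExcIdx
open Cfsg.Agent.KFacts.RgdAut Cfsg.Agent.KFacts.RgdDiag Cfsg.Agent.KFacts.RgdField Cfsg.Agent.KFacts.RgdTau

variable {r q l : ℕ} {M : CoxeterMatrix (Fin l)} {A : Fin l → Fin l → ℤ} {h : IsCartan M A} {f : Fin l → ℕ}
  {S : Type*} [Group S] {T : Subgroup S} {n : Fin l → S} {X : (Fin l → ℤ) → Subgroup S}
  {F : Type*} [Field F] {x : (Fin l → ℤ) → F → S} {χ : (Fin l → ℤ) → S → F} {hh : Fin l → F → S}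

theorem exists_generic [Finite S] (hr : r.Prime) (hq : 2 ≤ q) (hq4 : q ≠ 4) {j k₀ k₁ : Fin l} {K' : Set (Fin l)}
    (D : ExcData r q h f {i | i ≠ j} T n X) (hJ : ({i | i ≠ j} : Set (Fin l)) = {k₀, k₁} ∪ K')
    (ho : ∀ i ∈ ({k₀, k₁} : Set (Fin l)), ∀ i' ∈ K', M i i' = 2) (hk : M k₀ k₁ = 3) (hk1 : M k₁ j = 2)
    (hk0 : M k₀ j = 3 ∨ M k₀ j = 4)
    (hun : ∀ a b, a ≠ j → b ≠ j → M a b = 3 → (∀ c, c ≠ j → c ≠ a → c ≠ b → M a c = 2 ∧ M b c = 2) →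
      (a = k₀ ∧ b = k₁) ∨ (a = k₁ ∧ b = k₀))
    (hfq : f k₀ = q) (hK' : In h X K') (C : Coords M.toCoxeterSystem h T n X x χ) (H : Coroots A T X χ hh) :
    ∃ θ : S → ℂ, IsIrrCharacter S θ ∧
      (∃ N : ℕ, θ 1 = N ∧ ∀ ℓ : ℕ, ℓ.Prime → ℓ ∣ Nat.card S → ℓ ≠ r → ℓ ∣ N) ∧
      ∀ (β : MulAut S) (τ : F ≃+* F), Tau T X χ A β 1 τ → τ ≠ 1 → ∃ y, θ (β y) ≠ θ y := by
  classical
  have := D.fin
  have : Fintype S := Fintype.ofFinite S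
  obtain ⟨θ, d, t, hθ, hns, hd, hdt, ht, hsw, hdir⟩ := a2A D.rgd hk ((D.size k₀).trans hfq) hq4
  obtain ⟨θ', hθ'⟩ := hK'
  have hmem : ∀ i, i ∈ ({i | i ≠ j} : Set (Fin l)) ↔ i ≠ j := fun i => Iff.rfl
  have hk0J : k₀ ∈ ({i | i ≠ j} : Set (Fin l)) := by rw [hJ]; simp
  have hk1J : k₁ ∈ ({i | i ≠ j} : Set (Fin l)) := by rw [hJ]; simp
  have hiso : IsoPair A {i | i ≠ j} k₀ k₁ := isoPair_of h hk0J hk1J hk fun c hc hc0 hc1 => by
    rw [hJ] at hc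
    rcases hc with hc | hc
    · rcases hc with rfl | rfl
      · exact absurd rfl hc0
      · exact absurd rfl hc1
    · exact ⟨ho _ (by simp) c hc, ho _ (by simp) c hc⟩
  have hun' : ∀ a b, IsoPair A {i | i ≠ j} a b → (a = k₀ ∧ b = k₁) ∨ (a = k₁ ∧ b = k₀) := fun a b hab => by
    obtain ⟨h1, h2, h3, h4⟩ := of_isoPair h hab
    exact hun a b h1 h2 h3 h4
  have hO : Orth A {k₀, k₁} K' := orth_of h ho
  obtain ⟨ψ, hψ, hval⟩ := hθ.exists_prod D.rgd hO hθ'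
  have hval1 : ψ 1 = θ 1 * θ' 1 := by
    obtain ⟨hab, e⟩ := hval 1 (one_mem _) 1 (one_mem _)
    simp only [mul_one] at e
    exact e
  have hθ'1 := Core.isIrr_apply_one_ne_zero hθ'.irr
  -- the character on `M_J`
  obtain ⟨ψ', hψi, hψv, hval', hψ1⟩ : ∃ ψ' : ↥(MJ M.toCoxeterSystem h X {i | i ≠ j}) → ℂ, IsIrrCharacter _ ψ' ∧
      (∀ i ∈ ({i | i ≠ j} : Set (Fin l)), ∀ [Fintype (rad M.toCoxeterSystem h X {i | i ≠ j} i)],
        ∑ u : rad M.toCoxeterSystem h X {i | i ≠ j} i, ψ' ⟨u, rad_le_MJ {i | i ≠ j} i u.2⟩ = 0) ∧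
      (∀ (a : S) (ha : a ∈ MJ M.toCoxeterSystem h X {k₀, k₁}) (b : S) (hb : b ∈ MJ M.toCoxeterSystem h X K'),
        ∃ hab : a * b ∈ MJ M.toCoxeterSystem h X {i | i ≠ j}, ψ' ⟨a * b, hab⟩ = θ ⟨a, ha⟩ * θ' ⟨b, hb⟩) ∧
      ψ' 1 = θ 1 * θ' 1 := by
    rw [hJ]
    exact ⟨ψ, hψ.irr, hψ.van, hval, hval1⟩
  obtain ⟨Θ, hΘ, ⟨k, hk0', hΘ1⟩, hβ⟩ := H804.Ext.exists_irr_MJ_two D.rgd D.gg {i | i ≠ j} hψi hψv (by
    intro w g hg hw hp
    obtain ⟨h0, h1⟩ := swap_of_iso hmem hiso (cartan_two h hk1).1 (not_three_dvd h hk0) hun' hp hw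
    exact not_stable_swap D.rgd hJ hO rfl hns hθ'.irr hval' hg hp h0 h1)
  obtain ⟨e, -, he⟩ := Core.isIrr_apply_one hθ'.irr
  refine ⟨Θ, hΘ, ⟨(PJ M.toCoxeterSystem h T X {i | i ≠ j}).index * (k * (d * e)), ?_, ?_⟩, ?_⟩
  · rw [hΘ1, hψ1, hd, he]; push_cast; ring
  · intro ℓ hℓ h1 h2
    by_cases h3 : ℓ ∣ q - 1
    · have h4 := dvd_of_mul_eq hℓ hq h3 ht hdt
      exact Dvd.dvd.mul_left (Dvd.dvd.mul_left (Dvd.dvd.mul_right h4 _) _) _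
    · exact Dvd.dvd.mul_right (D.idx ℓ hℓ h1 (fun h4 => h2 ((Nat.prime_dvd_prime_iff_eq hℓ hr).1 h4)) h3) _
  · intro β τ B hτ
    have hfix : ∀ x, IsRoot M.toCoxeterSystem h x → Fix β (X x) := fun x hx => fix_of_tau D.rgd C B hx
    refine hβ β hfix B.diag.tor fun w g hg hw _ => ?_
    exact two_of_A2 D.rgd hmem hJ hO hiso (cartan_two h hk1).1 (not_three_dvd h hk0) hun' hsw hθ'1 hval' hfix
      (fun t ht => notFix_of_tau D.rgd C H (cartan_three h hk).2 hdir B hτ ht) hg hw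

end Cfsg.Agent.H728.Ext
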